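import Mathlib
import Cfsg.Agent.Lib.ElemOrders.Basic

/-! The centraliser of a matrix whose minimal polynomial is irreducible of full degree: the field `F[M]`. -/

set_option autoImplicit false

namespace Cfsg.Agent.Lib.ElemOrders

open Polynomial Module

variable {F : Type*} [Field F] {n : ℕ}

/-- The evaluation map `F[X]/(μ) → F[M]` for `μ` the minimal polynomial. -/
noncomputable def evalHom (M : Matrix (Fin n) (Fin n) F) : AdjoinRoot (minpoly F M) →ₐ[F] Matrix (Fin n) (Fin n) F :=
  Ideal.Quotient.liftₐ (Ideal.span {minpoly F M}) (Polynomial.aeval M) (by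
    intro a ha
    obtain ⟨b, rfl⟩ := Ideal.mem_span_singleton'.1 ha
    simp only [map_mul, minpoly.aeval, mul_zero])

theorem evalHom_mk (M : Matrix (Fin n) (Fin n) F) (g : F[X]) :
    evalHom M (AdjoinRoot.mk _ g) = Polynomial.aeval M g := rfl

theorem evalHom_commute (M : Matrix (Fin n) (Fin n) F) (e : AdjoinRoot (minpoly F M)) :
    evalHom M e * M = M * evalHom M e := by
  obtain ⟨g, rfl⟩ := AdjoinRoot.mk_surjective e
  rw [evalHom_mk]
  exact (Algebra.commute_of_mem_adjoin_singleton_of_commute (Polynomial.aeval_mem_adjoin_singleton F M)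
    (Commute.refl M)).eq.symm

/-- If the minimal polynomial is irreducible of full degree, everything commuting with `M` is a value of `evalHom`. -/
theorem exists_evalHom_eq (M : Matrix (Fin n) (Fin n) F) (hirr : Irreducible (minpoly F M))
    (hdeg : (minpoly F M).natDegree = n) (hn : 1 ≤ n) (y : Matrix (Fin n) (Fin n) F) (hy : y * M = M * y) :
    ∃ e, y = evalHom M e := by
  classical
  haveI : Fact (Irreducible (minpoly F M)) := ⟨hirr⟩
  haveI : Nonempty (Fin n) := ⟨⟨0, by omega⟩⟩
  let w : Fin n → F := fun _ => 1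
  have hw : w ≠ 0 := fun h => one_ne_zero (congrFun h ⟨0, by omega⟩)
  -- the orbit map
  let ev : AdjoinRoot (minpoly F M) →ₗ[F] (Fin n → F) :=
    { toFun := fun e => (evalHom M e).mulVec w
      map_add' := fun a b => by rw [map_add, Matrix.add_mulVec]
      map_smul' := fun c a => by rw [map_smul, Matrix.smul_mulVec]; rfl }
  have hevinj : Function.Injective ev := by
    rw [injective_iff_map_eq_zero]
    intro e he
    by_contra hne
    apply hw
    have h1 : evalHom M e⁻¹ * evalHom M e = 1 := by
      rw [← map_mul, inv_mul_cancel₀ hne, map_one]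
    have h2 : (evalHom M e).mulVec w = 0 := he
    have h3 := congrArg (fun A => A.mulVec w) h1
    simp only [← Matrix.mulVec_mulVec, h2, Matrix.mulVec_zero, Matrix.one_mulVec] at h3
    exact h3.symm
  have hfin : finrank F (AdjoinRoot (minpoly F M)) = finrank F (Fin n → F) := by
    have h1 : finrank F (AdjoinRoot (minpoly F M)) = (minpoly F M).natDegree :=
      (AdjoinRoot.powerBasis hirr.ne_zero).finrank.trans (by rw [AdjoinRoot.powerBasis_dim])
    rw [h1, hdeg]
    simp
  haveI : FiniteDimensional F (AdjoinRoot (minpoly F M)) := (AdjoinRoot.powerBasis hirr.ne_zero).finite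
  have hevsurj : Function.Surjective ev := (LinearMap.injective_iff_surjective_of_finrank_eq_finrank hfin).1 hevinj
  obtain ⟨e, he⟩ := hevsurj (y.mulVec w)
  refine ⟨e, ?_⟩
  -- `y - ψ e` commutes with `M` and kills `w`, so it kills all `ψ(e') w`
  set z := y - evalHom M e with hz
  have hzM : z * M = M * z := by
    rw [hz, sub_mul, mul_sub, hy, evalHom_commute]
  have hzψ : ∀ e', z * evalHom M e' = evalHom M e' * z := by
    intro e'
    obtain ⟨g, rfl⟩ := AdjoinRoot.mk_surjective e'
    rw [evalHom_mk]
    exact (Algebra.commute_of_mem_adjoin_singleton_of_commute (Polynomial.aeval_mem_adjoin_singleton F M)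
      (show Commute z M from hzM)).eq
  have hzw : z.mulVec w = 0 := by
    have : (evalHom M e).mulVec w = y.mulVec w := he
    rw [hz, Matrix.sub_mulVec, this, sub_self]
  have hz0 : z = 0 := by
    apply Matrix.toLin'.injective
    rw [map_zero]
    apply LinearMap.ext
    intro v
    obtain ⟨e', he'⟩ := hevsurj v
    have h2 : v = (evalHom M e').mulVec w := he'.symm
    rw [h2]
    show z.mulVec ((evalHom M e').mulVec w) = 0
    rw [Matrix.mulVec_mulVec, hzψ, ← Matrix.mulVec_mulVec, hzw, Matrix.mulVec_zero]
  exact sub_eq_zero.1 hz0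

end Cfsg.Agent.Lib.ElemOrders
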