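import Mathlib

/-! A semisimple endomorphism over a finite field: an invariant block `F[X]/(f)` with an invariant complement, and the
surjectivity of the determinant on its centraliser. -/

set_option autoImplicit false

namespace Cfsg.Agent.Lib.ElemOrders

open Polynomial Module

variable {F V : Type*} [Field F] [AddCommGroup V] [Module F V]

/-- The orbit map `F[X]/(f) → V`, `P ↦ P(T) u`, for `f(T) u = 0`. -/
noncomputable def orbitMapAux (T : End F V) (u : V) (f : F[X]) (hu : Polynomial.aeval T f u = 0) :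
    (F[X] ⧸ (Ideal.span {f} : Ideal F[X])) →ₗ[F] V :=
  (Submodule.liftQ ((Ideal.span {f} : Ideal F[X]).restrictScalars F)
    ((LinearMap.applyₗ u : End F V →ₗ[F] V) ∘ₗ (Polynomial.aeval T).toLinearMap) (by
      intro a ha
      have ha' : a ∈ (Ideal.span {f} : Ideal F[X]) := ha
      obtain ⟨b, rfl⟩ := Ideal.mem_span_singleton'.1 ha'
      simp only [LinearMap.mem_ker, LinearMap.comp_apply, AlgHom.toLinearMap_apply, map_mul,
        LinearMap.applyₗ_apply_apply, Module.End.mul_apply, hu, map_zero])) ∘ₗ
  ((Submodule.Quotient.restrictScalarsEquiv F (Ideal.span {f} : Ideal F[X])).symm : _ →ₗ[F] _)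

/-- The orbit map `F[X]/(f) → V`, `P ↦ P(T) u`, for `f(T) u = 0`. -/
noncomputable def orbitMap (T : End F V) (u : V) (f : F[X]) (hu : Polynomial.aeval T f u = 0) :
    AdjoinRoot f →ₗ[F] V := orbitMapAux T u f hu

theorem orbitMap_mk (T : End F V) (u : V) (f : F[X]) (hu : Polynomial.aeval T f u = 0) (P : F[X]) :
    orbitMap T u f hu (AdjoinRoot.mk f P) = Polynomial.aeval T P u := rfl

theorem orbitMap_root_mul (T : End F V) (u : V) (f : F[X]) (hu : Polynomial.aeval T f u = 0)
    (y : AdjoinRoot f) : orbitMap T u f hu (AdjoinRoot.root f * y) = T (orbitMap T u f hu y) := by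
  obtain ⟨P, rfl⟩ := AdjoinRoot.mk_surjective y
  rw [← AdjoinRoot.mk_X, ← map_mul, orbitMap_mk, orbitMap_mk, map_mul, Polynomial.aeval_X,
    Module.End.mul_apply]

theorem orbitMap_injective (T : End F V) (u : V) (f : F[X]) (hu : Polynomial.aeval T f u = 0)
    (hf : Irreducible f) (hu0 : u ≠ 0) : Function.Injective (orbitMap T u f hu) := by
  rw [injective_iff_map_eq_zero]
  intro y hy
  obtain ⟨P, rfl⟩ := AdjoinRoot.mk_surjective y
  rw [orbitMap_mk] at hy
  by_contra hne
  have hP : ¬ f ∣ P := fun h => hne (AdjoinRoot.mk_eq_zero.2 h)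
  have hcop : IsCoprime f P := (hf.coprime_iff_not_dvd).2 hP
  obtain ⟨A, B, hAB⟩ := hcop
  apply hu0
  have h1 := congrArg (fun R : F[X] => Polynomial.aeval T R u) hAB
  simp only [map_add, map_mul, LinearMap.add_apply, Module.End.mul_apply, hu, hy, map_zero, add_zero,
    map_one, Module.End.one_apply] at h1
  exact h1.symm

/-- A nonzero vector killed by an irreducible factor of the minimal polynomial. -/
theorem exists_irreducible_vector [FiniteDimensional F V] [Nontrivial V] (T : End F V) :
    ∃ (f : F[X]) (u : V), Irreducible f ∧ u ≠ 0 ∧ Polynomial.aeval T f u = 0 := by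
  have hint : IsIntegral F T := Algebra.IsIntegral.isIntegral T
  have hμ : ¬ IsUnit (minpoly F T) := minpoly.not_isUnit F T
  obtain ⟨f, hf, g, hg⟩ := WfDvdMonoid.exists_irreducible_factor hμ (minpoly.ne_zero hint)
  have hg0 : Polynomial.aeval T g ≠ 0 := by
    intro h0
    have h1 := minpoly.dvd F T h0
    rw [hg] at h1
    have hg00 : g ≠ 0 := by
      rintro rfl
      rw [mul_zero] at hg
      exact minpoly.ne_zero hint hg
    have h2 : f * g ∣ 1 * g := by rwa [one_mul]
    exact hf.not_isUnit (isUnit_of_dvd_one ((mul_dvd_mul_iff_right hg00).1 h2))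
  obtain ⟨v, hv⟩ : ∃ v, Polynomial.aeval T g v ≠ 0 := by
    by_contra hcon
    push Not at hcon
    exact hg0 (LinearMap.ext hcon)
  refine ⟨f, _, hf, hv, ?_⟩
  rw [← Module.End.mul_apply, ← map_mul, ← hg, minpoly.aeval]
  rfl

/-- The determinant is surjective on the centraliser of a semisimple endomorphism over a finite field. -/
theorem exists_commuting_det [Finite F] [FiniteDimensional F V] [Nontrivial V] (T : End F V) (hT : T.IsSemisimple)
    (δ : F) : ∃ c : End F V, c * T = T * c ∧ LinearMap.det c = δ := by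
  classical
  obtain ⟨f, u, hf, hu0, hu⟩ := exists_irreducible_vector T
  haveI : Fact (Irreducible f) := ⟨hf⟩
  let E := AdjoinRoot f
  haveI : FiniteDimensional F E := (AdjoinRoot.powerBasis hf.ne_zero).finite
  haveI : Finite E := Module.finite_of_finite F
  let ev := orbitMap T u f hu
  have hinj : Function.Injective ev := orbitMap_injective T u f hu hf hu0
  have hUinv : LinearMap.range ev ∈ Module.End.invtSubmodule T := by
    rw [Module.End.mem_invtSubmodule]
    rintro _ ⟨y, rfl⟩
    exact ⟨AdjoinRoot.root f * y, orbitMap_root_mul T u f hu y⟩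
  obtain ⟨W, hW, hc⟩ := Module.End.isSemisimple_iff.1 hT _ hUinv
  rw [Module.End.mem_invtSubmodule] at hW
  obtain ⟨a, ha⟩ := FiniteField.norm_surjective F E δ
  let e : (E × W) ≃ₗ[F] V :=
    ((LinearEquiv.ofInjective ev hinj).prodCongr (LinearEquiv.refl F W)) ≪≫ₗ Submodule.prodEquivOfIsCompl _ W hc
  have he : ∀ (y : E) (w : W), e (y, w) = ev y + w := fun y w => rfl
  let C : End F (E × W) := (LinearMap.mulLeft F a).prodMap LinearMap.id
  let T' : End F (E × W) := (LinearMap.mulLeft F (AdjoinRoot.root f)).prodMap (T.restrict hW)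
  have hTe : ∀ z : E × W, T (e z) = e (T' z) := by
    rintro ⟨y, w⟩
    rw [he]
    show T (ev y + w) = e (AdjoinRoot.root f * y, T.restrict hW w)
    rw [he, map_add, orbitMap_root_mul]
    rfl
  have hCT : ∀ z : E × W, C (T' z) = T' (C z) := by
    rintro ⟨y, w⟩
    show (a * (AdjoinRoot.root f * y), T.restrict hW w) = (AdjoinRoot.root f * (a * y), T.restrict hW w)
    rw [mul_left_comm]
  let c : End F V := (e : (E × W) →ₗ[F] V) ∘ₗ C ∘ₗ (e.symm : V →ₗ[F] (E × W))
  refine ⟨c, ?_, ?_⟩
  · apply LinearMap.ext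
    intro v
    show e (C (e.symm (T v))) = T (e (C (e.symm v)))
    obtain ⟨z, rfl⟩ := e.surjective v
    rw [hTe, e.symm_apply_apply, hCT, ← hTe, e.symm_apply_apply]
  · have h1 : LinearMap.det c = LinearMap.det C := by
      have := LinearMap.det_conj C e
      exact this
    rw [h1, LinearMap.det_prodMap, LinearMap.det_id, mul_one]
    exact ha

end Cfsg.Agent.Lib.ElemOrders
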